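import Mathlib
import Cfsg.Agent.Lib.PSL2Max.Fin

/-!
# Subgroups of `PGL₂(p)` with a dihedral subgroup of order 8 whose centre is not weakly closed
-/

set_option autoImplicit false

namespace H98

open MulAction Matrix MatrixGroups H29 H29.Tri
open scoped LinearAlgebra.Projectivization

theorem commute_of_fix_pair {K : Type*} [Field K] {a b : PGL(2, K)} {x y : P1 K} (h : x ≠ y)
    (ax : a • x = x) (ay : a • y = y) (bx : b • x = x) (hby : b • y = y) : Commute a b := by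
  obtain ⟨c, rfl, rfl⟩ := exists_smul_two h
  obtain ⟨α, hα⟩ := exists_aff_zero (γ := c⁻¹ * a * c) (by rw [mul_smul, mul_smul, ax, inv_smul_smul])
    (by rw [mul_smul, mul_smul, ay, inv_smul_smul])
  obtain ⟨β, hβ⟩ := exists_aff_zero (γ := c⁻¹ * b * c) (by rw [mul_smul, mul_smul, bx, inv_smul_smul])
    (by rw [mul_smul, mul_smul, hby, inv_smul_smul])
  have h1 : a = c * aff α 0 * c⁻¹ := by rw [← hα]; group
  have h2 : b = c * aff β 0 * c⁻¹ := by rw [← hβ]; group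
  have h3 : aff α (0 : K) * aff β 0 = aff β 0 * aff α 0 := by rw [aff_zero_mul, aff_zero_mul, mul_comm]
  rw [h1, h2, Commute, SemiconjBy]
  calc _ = c * (aff α (0 : K) * aff β 0) * c⁻¹ := by group
    _ = c * (aff β (0 : K) * aff α 0) * c⁻¹ := by rw [h3]
    _ = _ := by group

theorem PS_le_of_four {K : Type*} [Field K] [IsAlgClosed K] {p : ℕ} [Fact p.Prime] [CharP K p] (h2 : p ≠ 2)
    {H : Subgroup PGL(2, K)} (hH : H ≤ PG (fld K p 1)) {ρ t g : PGL(2, K)} (hρ : ρ ∈ H) (ht : t ∈ H)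
    (hg : g ∈ H) (h4 : ρ ^ 4 = 1) (hρ2 : ρ ^ 2 ≠ 1) (hinv : t * ρ * t⁻¹ = ρ⁻¹)
    (hnc : ¬ Commute (g * ρ ^ 2 * g⁻¹) (ρ ^ 2)) : PS (fld K p 1) ≤ H := by
  rcases dickson_rat p one_ne_zero H hH with ⟨c, -, h⟩ | ⟨x, y, s, -, hT, h⟩ | ⟨-, h⟩ | ⟨-, h⟩ | ⟨-, -, h⟩ |
    ⟨i, c, hc, -, hi, -, h⟩
  · exfalso
    obtain ⟨a, b, e1⟩ := exists_aff_of_fix (γ := c⁻¹ * ρ * c)
      (by rw [mul_smul, mul_smul, mem_stabilizer_iff.1 (h hρ), inv_smul_smul])
    obtain ⟨a', b', e2⟩ := exists_aff_of_fix (γ := c⁻¹ * t * c)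
      (by rw [mul_smul, mul_smul, mem_stabilizer_iff.1 (h ht), inv_smul_smul])
    have h5 : aff a b * aff a' b' * aff a b = aff a' b' := by
      rw [← e1, ← e2]
      have : ρ * t * ρ = t := by
        calc _ = ρ * (t * ρ * t⁻¹) * t := by group
          _ = t := by rw [hinv]; group
      calc _ = c⁻¹ * (ρ * t * ρ) * c := by group
        _ = _ := by rw [this]
    rw [aff_mul, aff_mul] at h5
    have h6 : a * a = 1 := by
      have := (aff_inj h5).1
      rw [mul_comm a a', mul_assoc] at this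
      exact mul_left_cancel (this.trans (mul_one a').symm)
    have h7 : (c⁻¹ * ρ * c) ^ 2 = aff 1 (a * b + b) := by rw [e1, pow_two, aff_mul, h6]
    have h8 : aff 1 ((a : K) * b + b) ^ 2 = 1 := by
      rw [← h7, ← pow_mul]
      calc _ = c⁻¹ * ρ ^ 4 * c := by simp only [pow_succ, pow_zero]; group
        _ = 1 := by rw [h4]; group
    rw [aff_one_pow, ← aff_one] at h8
    have h9 : ((2 : ℕ) : K) ≠ 0 := by
      rw [Ne, CharP.cast_eq_zero_iff K p]
      exact fun h => h2 ((Nat.prime_dvd_prime_iff_eq Fact.out Nat.prime_two).1 h)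
    have h10 := (mul_eq_zero.1 (aff_inj h8).2).resolve_left h9
    rw [h10, aff_one] at h7
    apply hρ2
    calc ρ ^ 2 = c * (c⁻¹ * ρ * c) ^ 2 * c⁻¹ := by simp only [pow_succ, pow_zero]; group
      _ = 1 := by rw [h7]; group
  · exfalso
    have h1 := sq_fix_of_mem_pairStab (h hρ)
    have h3 := sq_fix_of_mem_pairStab (h (H.mul_mem (H.mul_mem hg hρ) (H.inv_mem hg)))
    rw [conj_pow] at h3
    exact hnc (commute_of_fix_pair hT.ne h3.1 h3.2 h1.1 h1.2)
  · exfalso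
    obtain ⟨f, hf, rfl⟩ := exists_inj_of_equiv h
    obtain ⟨a, rfl⟩ := hρ
    have key : ∀ a : alternatingGroup (Fin 4), a ^ 4 = 1 → a ^ 2 = 1 := by decide +kernel
    exact hρ2 (by rw [← map_pow, key a (hf (by rw [map_pow, h4, map_one])), map_one])
  · exfalso
    obtain ⟨f, hf, rfl⟩ := exists_inj_of_equiv h
    obtain ⟨a, rfl⟩ := hρ
    obtain ⟨b, rfl⟩ := hg
    have key : ∀ a b : Equiv.Perm (Fin 4), a ^ 4 = 1 → b * a ^ 2 * b⁻¹ * a ^ 2 = a ^ 2 * (b * a ^ 2 * b⁻¹) := by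
      decide +kernel
    apply hnc
    have := congrArg f (key a b (hf (by rw [map_pow, h4, map_one])))
    simp only [map_mul, map_pow, map_inv] at this
    exact this
  · exfalso
    obtain ⟨f, hf, rfl⟩ := exists_inj_of_equiv h
    obtain ⟨a, rfl⟩ := hρ
    have h5 : a ^ 4 = 1 := hf (by rw [map_pow, h4, map_one])
    apply hρ2
    rw [← map_pow]
    rcases alt_five_orders a with h6 | h6 | h6
    · rw [h6, map_one]
    · have : a = 1 := by rw [pow_succ, h6, one_mul] at h5; exact h5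
      simp [this]
    · have : a = 1 := by rw [pow_succ, h5, one_mul] at h6; exact h6
      simp [this]
  · obtain rfl := Nat.dvd_one.1 hi
    rcases h with rfl | ⟨-, rfl⟩
    · rw [cj_PG hc]; exact PS_le_PG _
    · rw [cj_PS hc]

/-- A subgroup of `PGL₂(p)`, `p` odd, containing an element `ρ` of order 4, an element inverting it, and a
conjugate of `ρ ^ 2` not commuting with `ρ ^ 2`, contains `PSL₂(p)`. -/
theorem toPGL_mem_of_four {F : Type*} [Field F] [Finite F] (hF : (Nat.card F).Prime) (h2 : Nat.card F ≠ 2)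
    {G : Subgroup PGL(2, F)} {ρ t g : PGL(2, F)} (hρ : ρ ∈ G) (ht : t ∈ G)
    (hg : g ∈ G) (h4 : ρ ^ 4 = 1) (hρ2 : ρ ^ 2 ≠ 1) (hinv : t * ρ * t⁻¹ = ρ⁻¹)
    (hnc : ¬ Commute (g * ρ ^ 2 * g⁻¹) (ρ ^ 2)) (x : PSL(2, F)) :
    ProjectiveSpecialLinearGroup.toPGL x ∈ G := by
  have := Fact.mk hF
  have hc : Nat.card F = Nat.card F ^ 1 := (pow_one _).symm
  have := charP_of_card_eq_pow hc
  let f : PGL(2, F) →* PGL(2, AlgebraicClosure F) := ProjGenLinGroup.map (algebraMap F (AlgebraicClosure F))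
  have hf : Function.Injective f := pgl_map_injective _
  have h1 := PS_le_of_four (K := AlgebraicClosure F) h2 (H := G.map f)
    (by rw [← range_pglMap hc]; exact Subgroup.map_le_range f G) ⟨ρ, hρ, rfl⟩ ⟨t, ht, rfl⟩ ⟨g, hg, rfl⟩
    (by rw [← map_pow, h4, map_one]) (fun h => hρ2 (hf (by rw [map_pow, h, map_one])))
    (by rw [← map_inv, ← map_mul, ← map_mul, hinv, map_inv])
    (fun h => hnc (hf (by simpa only [map_mul, map_pow, map_inv] using h.eq)))
  rw [← range_iota hc] at h1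
  obtain ⟨y, hy, e⟩ := h1 ⟨x, rfl⟩
  rw [← hf e]; exact hy

end H98
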